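-- Team project OTSP (S5973): plus-type orthogonal groups on totally singular m-spaces, ALL q.
-- Interface file: definitions and the package statements (helper99).
import Mathlib
import Cfsg.Prelude.Def_GeometricClasses
import Cfsg.Prelude.Def_Classical
import Cfsg.Agent.Lib.Helper23.OHyp.Defs

set_option autoImplicit false
open scoped MatrixGroups
open Matrix

namespace Cfsg.Agent.Lib.Helper99.OTSP

open Cfsg.Agent.Lib.Helper23.OHyp

universe u

section defs

variable {F : Type u} [Field F] {ι : Type} [Fintype ι] [DecidableEq ι]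

/-- `W` is totally singular for `Q`. -/
def TS (Q : (ι → F) → F) (W : Submodule F (ι → F)) : Prop := ∀ w ∈ W, Q w = 0

/-- The matrix `x` has an invariant totally singular `m`-space. -/
def FixTS (Q : (ι → F) → F) (m : ℕ) (x : Matrix ι ι F) : Prop :=
  ∃ W : Submodule F (ι → F), Module.finrank F ↥W = m ∧ (∀ w ∈ W, Q w = 0) ∧
    W.map (Matrix.toLin' x) ≤ W

end defs

/-- Standing hypotheses, ALL characteristics: `y` is an isometry of the nondegenerate quadratic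
form `Q` over a finite field, `y ^ r = 1`, `r` an odd prime different from the characteristic. -/
structure StdQ {F : Type u} [Field F] [Fintype F] {ι : Type} [Fintype ι] [DecidableEq ι]
    (Q : (ι → F) → F) (r : ℕ) (y : Matrix ι ι F) : Prop where
  nondeg : Cfsg.Geo.IsNondegenerateQuadraticForm Q
  prime : r.Prime
  ne_two : r ≠ 2
  ndvd : ¬ r ∣ Fintype.card F
  pow : y ^ r = 1
  isom : ∀ v, Q (y *ᵥ v) = Q v

/-- `i` odd, `dim N = 2 i j`: an invariant t.s. `m`-space exists iff this holds. -/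
def CondOdd (i m d j : ℕ) : Prop := ∃ s, s ≤ j ∧ i * s ≤ m ∧ m - i * s ≤ d - i * j

/-- `i` even, `dim N = i j`, invariant t.s. subspaces of `N` of dimensions `i s`, `s ≤ S`. -/
def CondEv (i m d j S : ℕ) : Prop :=
  ∃ s, s ≤ S ∧ i * s ≤ m ∧ 2 * (m - i * s) + (if Even j then 0 else 2) ≤ 2 * d - i * j

/-- `i` odd: every element fixes a t.s. `m`-space. -/
def AllOdd (i m d : ℕ) : Prop := ∀ j, 1 ≤ j → i * j ≤ d → CondOdd i m d j

/-- `i` even: every element fixes a t.s. `m`-space (`t` isomorphism types of blocks). -/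
def AllEv (i m d t : ℕ) : Prop :=
  ∀ j, 1 ≤ j → i * j ≤ 2 * d → (i * j = 2 * d → Even j) → CondEv i m d j ((j + 1 - t) / 2)

/-! ## Level 0: the packages used by the final assembly -/

/-- [TWO] the `r = 2` slice, `q` odd. -/
def PkgTwo : Prop :=
  ∀ (F : Type u) [Field F] [Fintype F] (d m : ℕ), Odd (Fintype.card F) → 4 ≤ d → 1 ≤ m → m < d →
    ((∀ x : GL (Fin d ⊕ Fin d) F, x ∈ Cfsg.Geo.omegaGL (Cfsg.quadFormPlus d F) →
        (∃ z : F, ((x ^ 2 : GL (Fin d ⊕ Fin d) F) : Matrix (Fin d ⊕ Fin d) (Fin d ⊕ Fin d) F) =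
          z • (1 : Matrix (Fin d ⊕ Fin d) (Fin d ⊕ Fin d) F)) →
        (∀ z : F, (x : Matrix (Fin d ⊕ Fin d) (Fin d ⊕ Fin d) F) ≠
          z • (1 : Matrix (Fin d ⊕ Fin d) (Fin d ⊕ Fin d) F)) →
        FixTS (Cfsg.quadFormPlus d F) m (x : Matrix (Fin d ⊕ Fin d) (Fin d ⊕ Fin d) F)) ↔
      (Fintype.card F % 4 = 1 ∨
        (Fintype.card F % 4 = 3 ∧ m + 2 ≤ d ∧ (Even m ∨ (2 * d) % 4 = 2))))

/-- [PCNT] the characteristic does not divide the number of t.s. `m`-spaces (`m < d`). -/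
def PkgPCnt : Prop :=
  ∀ (F : Type u) [Field F] [Fintype F] (p : ℕ) [Fact p.Prime] [CharP F p] (d m : ℕ), m < d →
    ¬ p ∣ Nat.card {W : Submodule F (Fin d ⊕ Fin d → F) //
      Module.finrank F ↥W = m ∧ (∀ w ∈ W, Cfsg.quadFormPlus d F w = 0)}

/-- [DVD] a prime dividing the number of t.s. `m`-spaces divides some `q^(d-j) - 1` or
`q^(d-j-1) + 1`, `j < m`. -/
def PkgDvd : Prop :=
  ∀ (F : Type u) [Field F] [Fintype F] (d m r : ℕ), r.Prime → m < d →
    r ∣ Nat.card {W : Submodule F (Fin d ⊕ Fin d → F) //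
      Module.finrank F ↥W = m ∧ (∀ w ∈ W, Cfsg.quadFormPlus d F w = 0)} →
    ∃ j, j < m ∧ (r ∣ Fintype.card F ^ (d - j) - 1 ∨ r ∣ Fintype.card F ^ (d - j - 1) + 1)

/-- [ORD] arithmetic of `i = ord_r(q)`. -/
def PkgOrd : Prop :=
  ∀ (q r : ℕ), r.Prime → r ≠ 2 → ¬ r ∣ q →
    1 ≤ ordI q r ∧ ordI q r ∣ r - 1 ∧ (∀ e, r ∣ q ^ e - 1 → ordI q r ∣ e) ∧
    (∀ e, r ∣ q ^ e + 1 → Even (ordI q r) ∧ e % ordI q r = ordI q r / 2)

/-- [RED] reduction from `x ∈ Ω`, `x ^ r` scalar, `x` not scalar to isometries `y ≠ 1` with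
`y ^ r = 1` (`r` an odd prime; all characteristics). -/
def PkgRed : Prop :=
  ∀ (F : Type u) [Field F] [Fintype F] (d m r : ℕ), r.Prime → r ≠ 2 → 1 ≤ d →
    ((∀ x : GL (Fin d ⊕ Fin d) F, x ∈ Cfsg.Geo.omegaGL (Cfsg.quadFormPlus d F) →
        (∃ z : F, ((x ^ r : GL (Fin d ⊕ Fin d) F) : Matrix (Fin d ⊕ Fin d) (Fin d ⊕ Fin d) F) =
          z • (1 : Matrix (Fin d ⊕ Fin d) (Fin d ⊕ Fin d) F)) →
        (∀ z : F, (x : Matrix (Fin d ⊕ Fin d) (Fin d ⊕ Fin d) F) ≠
          z • (1 : Matrix (Fin d ⊕ Fin d) (Fin d ⊕ Fin d) F)) →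
        FixTS (Cfsg.quadFormPlus d F) m (x : Matrix (Fin d ⊕ Fin d) (Fin d ⊕ Fin d) F)) ↔
      (∀ y : GL (Fin d ⊕ Fin d) F, y ∈ Cfsg.isometryGroup F (Cfsg.quadFormPlus d F) →
        y ^ r = 1 → y ≠ 1 →
        FixTS (Cfsg.quadFormPlus d F) m (y : Matrix (Fin d ⊕ Fin d) (Fin d ⊕ Fin d) F)))

/-- [ODD] `i` odd: all isometries of order `r` fix a t.s. `m`-space iff `AllOdd`. -/
def PkgOdd : Prop :=
  ∀ (F : Type u) [Field F] [Fintype F] (d m r : ℕ), r.Prime → r ≠ 2 → ¬ r ∣ Fintype.card F →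
    Odd (ordI (Fintype.card F) r) → 1 ≤ d →
    ((∀ y : GL (Fin d ⊕ Fin d) F, y ∈ Cfsg.isometryGroup F (Cfsg.quadFormPlus d F) →
        y ^ r = 1 → y ≠ 1 →
        FixTS (Cfsg.quadFormPlus d F) m (y : Matrix (Fin d ⊕ Fin d) (Fin d ⊕ Fin d) F)) ↔
      AllOdd (ordI (Fintype.card F) r) m d)

/-- [EVEN] `i` even: all isometries of order `r` fix a t.s. `m`-space iff `AllEv`. -/
def PkgEven : Prop :=
  ∀ (F : Type u) [Field F] [Fintype F] (d m r : ℕ), r.Prime → r ≠ 2 → ¬ r ∣ Fintype.card F →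
    Even (ordI (Fintype.card F) r) → 1 ≤ d →
    ((∀ y : GL (Fin d ⊕ Fin d) F, y ∈ Cfsg.isometryGroup F (Cfsg.quadFormPlus d F) →
        y ^ r = 1 → y ≠ 1 →
        FixTS (Cfsg.quadFormPlus d F) m (y : Matrix (Fin d ⊕ Fin d) (Fin d ⊕ Fin d) F)) ↔
      AllEv (ordI (Fintype.card F) r) m d ((r - 1) / ordI (Fintype.card F) r))

/-- [NUMOD1] arithmetic, `i ≤ m`. -/
def PkgNumOd1 : Prop :=
  ∀ (i m d : ℕ), 1 ≤ i → i ≤ m → m < d →
    (AllOdd i m d ↔ 2 * (m % i) ≤ (2 * d) % (2 * i))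

/-- [NUMOD2] arithmetic, `m < i`: a multiple of `i` in `(d - m, d]` gives a derangement. -/
def PkgNumOd2 : Prop :=
  ∀ (i m d e : ℕ), 1 ≤ i → 1 ≤ m → m < i → m < d → d - m < e → e ≤ d → i ∣ e →
    ¬ AllOdd i m d

/-- [NUMEV1] arithmetic, `i` even, `i ≤ m`. -/
def PkgNumEv1 : Prop :=
  ∀ (i m d t : ℕ), Even i → 2 ≤ i → i ≤ m → m < d → 1 ≤ t →
    (AllEv i m d t ↔
      (t + 2 * (m / i) ≤ (2 * d) / i ∧
        ((2 * (m % i) ≤ i ∧ (2 * d) % i = 0 ∧ Odd ((2 * d) / i) ∧ t + 2 * (m / i) < (2 * d) / i) ∨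
         (2 * (m % i) ≤ (2 * d) % i ∧ Even ((2 * d) / i)) ∨
         (2 * (m % i) < (2 * d) % i ∧ Odd ((2 * d) / i)))))

/-- [NUMEV2] arithmetic, `i` even, `m < i`. -/
def PkgNumEv2 : Prop :=
  ∀ (i m d t : ℕ), Even i → 2 ≤ i → 1 ≤ m → m < i → m < d → 1 ≤ t →
    ((∃ e, d - m < e ∧ e ≤ d ∧ i ∣ e) ∨ (∃ e, d - m ≤ e ∧ e < d ∧ e % i = i / 2)) →
    ¬ AllEv i m d t

/-! ## Level 1: generic geometry (any finite index type, any nondegenerate `Q`, ALL
characteristics); `C = fixSp y`, `N = movSp y`, `i = ordI (card F) r` -/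

/-- [SPLIT] `V = C ⊥ N` and invariant subspaces split. -/
def PkgSplit : Prop :=
  ∀ (F : Type u) [Field F] [Fintype F] (ι : Type) [Fintype ι] [DecidableEq ι]
    (Q : (ι → F) → F) (r : ℕ) (y : Matrix ι ι F), StdQ Q r y →
    Perp Q (fixSp y) (movSp y) ∧ IsCompl (fixSp y) (movSp y) ∧ Inv y (movSp y) ∧
    Nd Q (fixSp y) ∧ Nd Q (movSp y) ∧
    ∀ W : Submodule F (ι → F), Inv y W →
      (W ⊓ fixSp y) ⊔ (W ⊓ movSp y) = W ∧ Inv y (W ⊓ movSp y)

/-- [DIMI] invariant subspaces of `N` have dimension divisible by `i`. -/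
def PkgDimI : Prop :=
  ∀ (F : Type u) [Field F] [Fintype F] (ι : Type) [Fintype ι] [DecidableEq ι]
    (Q : (ι → F) → F) (r : ℕ) (y : Matrix ι ι F), StdQ Q r y →
    ∀ L : Submodule F (ι → F), L ≤ movSp y → Inv y L →
      ordI (Fintype.card F) r ∣ Module.finrank F L

/-- [SUBI] an invariant subspace of `N` has invariant subspaces of every dimension `i s` below
its own. -/
def PkgSubI : Prop :=
  ∀ (F : Type u) [Field F] [Fintype F] (ι : Type) [Fintype ι] [DecidableEq ι]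
    (Q : (ι → F) → F) (r : ℕ) (y : Matrix ι ι F), StdQ Q r y →
    ∀ L : Submodule F (ι → F), L ≤ movSp y → Inv y L →
    ∀ s : ℕ, ordI (Fintype.card F) r * s ≤ Module.finrank F L →
      ∃ L' : Submodule F (ι → F), L' ≤ L ∧ Inv y L' ∧
        Module.finrank F L' = ordI (Fintype.card F) r * s

/-- [TSBD] a totally singular subspace of a nondegenerate subspace has at most half its
dimension. -/
def PkgTsBd : Prop :=
  ∀ (F : Type u) [Field F] [Fintype F] (ι : Type) [Fintype ι] [DecidableEq ι]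
    (Q : (ι → F) → F), Cfsg.Geo.IsNondegenerateQuadraticForm Q →
    ∀ X L : Submodule F (ι → F), Nd Q X → L ≤ X → TS Q L →
      2 * Module.finrank F L ≤ Module.finrank F X

/-- [NHYP] `i` odd: `N` has an invariant totally singular subspace of half its dimension. -/
def PkgNHyp : Prop :=
  ∀ (F : Type u) [Field F] [Fintype F] (ι : Type) [Fintype ι] [DecidableEq ι]
    (Q : (ι → F) → F) (r : ℕ) (y : Matrix ι ι F), StdQ Q r y →
    Odd (ordI (Fintype.card F) r) →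
    ∃ L : Submodule F (ι → F), L ≤ movSp y ∧ Inv y L ∧ TS Q L ∧
      2 * Module.finrank F L = Module.finrank F (movSp y)

/-- [TYPEN] `i` even: `N` is of plus type iff the number `dim N / i` of blocks is even. -/
def PkgTypeN : Prop :=
  ∀ (F : Type u) [Field F] [Fintype F] (ι : Type) [Fintype ι] [DecidableEq ι]
    (Q : (ι → F) → F) (r : ℕ) (y : Matrix ι ι F), StdQ Q r y →
    Even (ordI (Fintype.card F) r) →
    (Plus Q (movSp y) ↔ Even (Module.finrank F (movSp y) / ordI (Fintype.card F) r))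

/-- [PAIRS] `i` even: `N` has invariant totally singular subspaces of dimension `i s` for
`s ≤ (j + 1 - t) / 2`, `j = dim N / i`, `t = (r - 1) / i`. -/
def PkgPairs : Prop :=
  ∀ (F : Type u) [Field F] [Fintype F] (ι : Type) [Fintype ι] [DecidableEq ι]
    (Q : (ι → F) → F) (r : ℕ) (y : Matrix ι ι F), StdQ Q r y →
    Even (ordI (Fintype.card F) r) →
    ∀ s : ℕ, s ≤ (Module.finrank F (movSp y) / ordI (Fintype.card F) r + 1
        - (r - 1) / ordI (Fintype.card F) r) / 2 →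
      ∃ L : Submodule F (ι → F), L ≤ movSp y ∧ Inv y L ∧ TS Q L ∧
        Module.finrank F L = ordI (Fintype.card F) r * s

/-- [WCA] `V` of plus type, `V = C ⊥ N`, `N` of plus type: `C` has totally singular subspaces
of every dimension `e` with `2 e ≤ dim C`. -/
def PkgWCa : Prop :=
  ∀ (F : Type u) [Field F] [Fintype F] (ι : Type) [Fintype ι] [DecidableEq ι]
    (Q : (ι → F) → F), Cfsg.Geo.IsNondegenerateQuadraticForm Q → Plus Q ⊤ →
    ∀ C N : Submodule F (ι → F), Perp Q C N → IsCompl C N → Plus Q N →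
    ∀ e : ℕ, 2 * e ≤ Module.finrank F C →
      ∃ U : Submodule F (ι → F), U ≤ C ∧ TS Q U ∧ Module.finrank F U = e

/-- [WCB] `V` of plus type, `V = C ⊥ N`, `N` even-dimensional not of plus type: the totally
singular subspaces of `C` have exactly the dimensions `e` with `2 e + 2 ≤ dim C`. -/
def PkgWCb : Prop :=
  ∀ (F : Type u) [Field F] [Fintype F] (ι : Type) [Fintype ι] [DecidableEq ι]
    (Q : (ι → F) → F), Cfsg.Geo.IsNondegenerateQuadraticForm Q → Plus Q ⊤ →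
    ∀ C N : Submodule F (ι → F), Perp Q C N → IsCompl C N → ¬ Plus Q N →
    Even (Module.finrank F N) →
    (∀ U : Submodule F (ι → F), U ≤ C → TS Q U →
      2 * Module.finrank F U + 2 ≤ Module.finrank F C) ∧
    (∀ e : ℕ, 2 * e + 2 ≤ Module.finrank F C →
      ∃ U : Submodule F (ι → F), U ≤ C ∧ TS Q U ∧ Module.finrank F U = e)

/-- [FIXODD] `i` odd: the fixing criterion for one element. -/
def PkgFixOdd : Prop :=
  ∀ (F : Type u) [Field F] [Fintype F] (ι : Type) [Fintype ι] [DecidableEq ι]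
    (Q : (ι → F) → F) (r : ℕ) (y : Matrix ι ι F), StdQ Q r y → Plus Q ⊤ →
    ∀ d : ℕ, Fintype.card ι = 2 * d → Odd (ordI (Fintype.card F) r) →
    ∃ j : ℕ, ordI (Fintype.card F) r * j ≤ d ∧ (y ≠ 1 → 1 ≤ j) ∧
      Module.finrank F (movSp y) = 2 * (ordI (Fintype.card F) r * j) ∧
      ∀ m : ℕ, (FixTS Q m y ↔ CondOdd (ordI (Fintype.card F) r) m d j)

/-- [FIXEV] `i` even: the fixing criterion for one element, relative to a bound `S` on the
invariant totally singular subspaces of `N`. -/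
def PkgFixEv : Prop :=
  ∀ (F : Type u) [Field F] [Fintype F] (ι : Type) [Fintype ι] [DecidableEq ι]
    (Q : (ι → F) → F) (r : ℕ) (y : Matrix ι ι F), StdQ Q r y → Plus Q ⊤ →
    ∀ d : ℕ, Fintype.card ι = 2 * d → Even (ordI (Fintype.card F) r) →
    ∃ j : ℕ, ordI (Fintype.card F) r * j ≤ 2 * d ∧ (y ≠ 1 → 1 ≤ j) ∧
      (ordI (Fintype.card F) r * j = 2 * d → Even j) ∧
      Module.finrank F (movSp y) = ordI (Fintype.card F) r * j ∧
      ∀ m S : ℕ,
        ((∀ L : Submodule F (ι → F), L ≤ movSp y → Inv y L → TS Q L →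
            Module.finrank F L ≤ ordI (Fintype.card F) r * S) →
          FixTS Q m y → CondEv (ordI (Fintype.card F) r) m d j S) ∧
        ((∀ s : ℕ, s ≤ S → ∃ L : Submodule F (ι → F), L ≤ movSp y ∧ Inv y L ∧ TS Q L ∧
            Module.finrank F L = ordI (Fintype.card F) r * s) →
          CondEv (ordI (Fintype.card F) r) m d j S → FixTS Q m y)

/-! ## Level 1: the plus form `quadFormPlus d F` -/

/-- [PLUSQ] the plus form is a nondegenerate quadratic form of plus type (ALL characteristics). -/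
def PkgPlusQ : Prop :=
  ∀ (F : Type u) [Field F] (d : ℕ),
    Cfsg.Geo.IsNondegenerateQuadraticForm (Cfsg.quadFormPlus d F) ∧
    Plus (Cfsg.quadFormPlus d F) ⊤

/-- [ODDOM] an isometry of odd order of the plus form lies in `Ω` (ALL characteristics). -/
def PkgOddOm : Prop :=
  ∀ (F : Type u) [Field F] [Fintype F] (d : ℕ) (y : GL (Fin d ⊕ Fin d) F),
    y ∈ Cfsg.isometryGroup F (Cfsg.quadFormPlus d F) → ∀ k : ℕ, Odd k → y ^ k = 1 →
    y ∈ Cfsg.Geo.omegaGL (Cfsg.quadFormPlus d F)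

/-- [EXODD] `i` odd: isometries of the plus form with `dim N = 2 i j`, `1 ≤ j`, `i j ≤ d`. -/
def PkgExOdd : Prop :=
  ∀ (F : Type u) [Field F] [Fintype F] (d r j : ℕ), r.Prime → r ≠ 2 → ¬ r ∣ Fintype.card F →
    Odd (ordI (Fintype.card F) r) → 1 ≤ j → ordI (Fintype.card F) r * j ≤ d →
    ∃ y : GL (Fin d ⊕ Fin d) F, y ∈ Cfsg.isometryGroup F (Cfsg.quadFormPlus d F) ∧ y ^ r = 1 ∧
      Module.finrank F (movSp (y : Matrix (Fin d ⊕ Fin d) (Fin d ⊕ Fin d) F)) =
        2 * (ordI (Fintype.card F) r * j)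

/-- [SPREAD] `i` even: isometries of the plus form with `j` blocks (`1 ≤ j`, `i j ≤ 2 d`, `j` even
if `i j = 2 d`) whose invariant totally singular subspaces in `N` have dimension at most
`i ((j + 1 - t) / 2)`, `t = (r - 1) / i`. -/
def PkgSpread : Prop :=
  ∀ (F : Type u) [Field F] [Fintype F] (d r j : ℕ), r.Prime → r ≠ 2 → ¬ r ∣ Fintype.card F →
    Even (ordI (Fintype.card F) r) → 1 ≤ j → ordI (Fintype.card F) r * j ≤ 2 * d →
    (ordI (Fintype.card F) r * j = 2 * d → Even j) →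
    ∃ y : GL (Fin d ⊕ Fin d) F, y ∈ Cfsg.isometryGroup F (Cfsg.quadFormPlus d F) ∧ y ^ r = 1 ∧
      Module.finrank F (movSp (y : Matrix (Fin d ⊕ Fin d) (Fin d ⊕ Fin d) F)) =
        ordI (Fintype.card F) r * j ∧
      ∀ L : Submodule F (Fin d ⊕ Fin d → F),
        L ≤ movSp (y : Matrix (Fin d ⊕ Fin d) (Fin d ⊕ Fin d) F) →
        Inv (y : Matrix (Fin d ⊕ Fin d) (Fin d ⊕ Fin d) F) L → TS (Cfsg.quadFormPlus d F) L →
        Module.finrank F L ≤
          ordI (Fintype.card F) r * ((j + 1 - (r - 1) / ordI (Fintype.card F) r) / 2)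

end Cfsg.Agent.Lib.Helper99.OTSP
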