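-- Team project OTSP (S5973): interface file, part 2 (helper99): the `4 ≤ d` versions of [ODDOM]
-- and [RED] (these REPLACE `PkgOddOm` / `PkgRed` of `Defs.lean`) and the generalised [TYPEW].
import Mathlib
import Cfsg.Agent.Lib.Helper99.OTSP.Defs

set_option autoImplicit false
open scoped MatrixGroups
open Matrix

namespace Cfsg.Agent.Lib.Helper99.OTSP

open Cfsg.Agent.Lib.Helper23.OHyp

universe u

/-- [ODDOM4] an isometry of odd order of the plus form lies in `Ω` (`4 ≤ d`, ALL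
characteristics). -/
def PkgOddOm4 : Prop :=
  ∀ (F : Type u) [Field F] [Fintype F] (d : ℕ), 4 ≤ d → ∀ (y : GL (Fin d ⊕ Fin d) F),
    y ∈ Cfsg.isometryGroup F (Cfsg.quadFormPlus d F) → ∀ k : ℕ, Odd k → y ^ k = 1 →
    y ∈ Cfsg.Geo.omegaGL (Cfsg.quadFormPlus d F)

/-- [RED4] reduction from `x ∈ Ω`, `x ^ r` scalar, `x` not scalar to isometries `y ≠ 1` with
`y ^ r = 1` (`r` an odd prime, `4 ≤ d`; all characteristics). -/
def PkgRed4 : Prop :=
  ∀ (F : Type u) [Field F] [Fintype F] (d m r : ℕ), r.Prime → r ≠ 2 → 4 ≤ d →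
    ((∀ x : GL (Fin d ⊕ Fin d) F, x ∈ Cfsg.Geo.omegaGL (Cfsg.quadFormPlus d F) →
        (∃ z : F, ((x ^ r : GL (Fin d ⊕ Fin d) F) : Matrix (Fin d ⊕ Fin d) (Fin d ⊕ Fin d) F) =
          z • (1 : Matrix (Fin d ⊕ Fin d) (Fin d ⊕ Fin d) F)) →
        (∀ z : F, (x : Matrix (Fin d ⊕ Fin d) (Fin d ⊕ Fin d) F) ≠
          z • (1 : Matrix (Fin d ⊕ Fin d) (Fin d ⊕ Fin d) F)) →
        FixTS (Cfsg.quadFormPlus d F) m (x : Matrix (Fin d ⊕ Fin d) (Fin d ⊕ Fin d) F)) ↔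
      (∀ y : GL (Fin d ⊕ Fin d) F, y ∈ Cfsg.isometryGroup F (Cfsg.quadFormPlus d F) →
        y ^ r = 1 → y ≠ 1 →
        FixTS (Cfsg.quadFormPlus d F) m (y : Matrix (Fin d ⊕ Fin d) (Fin d ⊕ Fin d) F)))

/-- [TYPEW] `i` even: an invariant nondegenerate subspace `W` of `N = movSp y` is of plus type
iff `dim W / i` is even (ALL characteristics; [TYPEN] is the case `W = N`). -/
def PkgTypeW : Prop :=
  ∀ (F : Type u) [Field F] [Fintype F] (ι : Type) [Fintype ι] [DecidableEq ι]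
    (Q : (ι → F) → F) (r : ℕ) (y : Matrix ι ι F), StdQ Q r y →
    Even (ordI (Fintype.card F) r) →
    ∀ W : Submodule F (ι → F), W ≤ movSp y → Inv y W → Nd Q W →
      (Plus Q W ↔ Even (Module.finrank F W / ordI (Fintype.card F) r))

end Cfsg.Agent.Lib.Helper99.OTSP
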