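-- Team project OTSP (S5973): the cut of package [PAIRS] (helper99).
import Mathlib
import Cfsg.Agent.Lib.Helper99.OTSP.Defs2

set_option autoImplicit false
open scoped MatrixGroups
open Matrix

namespace Cfsg.Agent.Lib.Helper99.OTSP

open Cfsg.Agent.Lib.Helper23.OHyp

universe u

/-- [TITS] an invariant subspace of `N = movSp y` on which the polar form vanishes is totally
singular (ALL characteristics). -/
def PkgTiTs : Prop :=
  ∀ (F : Type u) [Field F] [Fintype F] (ι : Type) [Fintype ι] [DecidableEq ι]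
    (Q : (ι → F) → F) (r : ℕ) (y : Matrix ι ι F), StdQ Q r y →
    ∀ L : Submodule F (ι → F), L ≤ movSp y → Inv y L →
      (∀ u ∈ L, ∀ v ∈ L, QuadraticMap.polar Q u v = 0) → TS Q L

/-- [ANISO] `N = L ⊕ R' ⊕ L*`-decomposition: a maximal invariant totally singular `L ≤ N` and an
invariant nondegenerate `R' ≤ N` of dimension `dim N - 2 dim L` without nonzero invariant
totally singular subspaces. -/
def PkgAniso : Prop :=
  ∀ (F : Type u) [Field F] [Fintype F] (ι : Type) [Fintype ι] [DecidableEq ι]
    (Q : (ι → F) → F) (r : ℕ) (y : Matrix ι ι F), StdQ Q r y →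
    ∃ L R' : Submodule F (ι → F), L ≤ movSp y ∧ Inv y L ∧ TS Q L ∧
      R' ≤ movSp y ∧ Inv y R' ∧ Nd Q R' ∧
      Module.finrank F (movSp y) = 2 * Module.finrank F L + Module.finrank F R' ∧
      ∀ T : Submodule F (ι → F), T ≤ R' → Inv y T → TS Q T → T = ⊥

/-- [PRIM] an invariant subspace of `N` of dimension `> i t` (`t = (r-1)/i` = the number of
isomorphism types of irreducible modules) contains an invariant subspace `M` of dimension `2 i`
in which every nonzero vector lies in an invariant subspace of dimension `i` (`M` is the sum of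
two isomorphic irreducible submodules). -/
def PkgPrim : Prop :=
  ∀ (F : Type u) [Field F] [Fintype F] (ι : Type) [Fintype ι] [DecidableEq ι]
    (Q : (ι → F) → F) (r : ℕ) (y : Matrix ι ι F), StdQ Q r y →
    ∀ R' : Submodule F (ι → F), R' ≤ movSp y → Inv y R' →
      ordI (Fintype.card F) r * ((r - 1) / ordI (Fintype.card F) r) < Module.finrank F R' →
      ∃ M : Submodule F (ι → F), M ≤ R' ∧ Inv y M ∧
        Module.finrank F M = 2 * ordI (Fintype.card F) r ∧
        ∀ v ∈ M, v ≠ 0 → ∃ U : Submodule F (ι → F), U ≤ M ∧ Inv y U ∧ v ∈ U ∧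
          Module.finrank F U = ordI (Fintype.card F) r

/-- [ZCNT] the number of singular vectors of a nondegenerate subspace of dimension `2 e`:
`q^(2e-1) + q^e - q^(e-1)` for plus type, `q^(2e-1) - q^e + q^(e-1)` otherwise (ALL
characteristics; stated without subtraction). -/
def PkgZCnt : Prop :=
  ∀ (F : Type u) [Field F] [Fintype F] (ι : Type) [Fintype ι] [DecidableEq ι]
    (Q : (ι → F) → F), Cfsg.Geo.IsNondegenerateQuadraticForm Q →
    ∀ (W : Submodule F (ι → F)) (e : ℕ), Nd Q W → Module.finrank F W = 2 * e → 1 ≤ e →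
      (Plus Q W → Nat.card {w : ι → F // w ∈ W ∧ Q w = 0} + Fintype.card F ^ (e - 1) =
        Fintype.card F ^ (2 * e - 1) + Fintype.card F ^ e) ∧
      (¬ Plus Q W → Nat.card {w : ι → F // w ∈ W ∧ Q w = 0} + Fintype.card F ^ e =
        Fintype.card F ^ (2 * e - 1) + Fintype.card F ^ (e - 1))

/-- [PAIRC] `i` even: an invariant nondegenerate `M ≤ N` of dimension `2 i`, all of whose
nonzero vectors lie in invariant subspaces of dimension `i`, contains a nonzero invariant totally
singular subspace. -/
def PkgPairC : Prop :=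
  ∀ (F : Type u) [Field F] [Fintype F] (ι : Type) [Fintype ι] [DecidableEq ι]
    (Q : (ι → F) → F) (r : ℕ) (y : Matrix ι ι F), StdQ Q r y →
    Even (ordI (Fintype.card F) r) →
    ∀ M : Submodule F (ι → F), M ≤ movSp y → Inv y M → Nd Q M →
      Module.finrank F M = 2 * ordI (Fintype.card F) r →
      (∀ v ∈ M, v ≠ 0 → ∃ U : Submodule F (ι → F), U ≤ M ∧ Inv y U ∧ v ∈ U ∧
          Module.finrank F U = ordI (Fintype.card F) r) →
      ∃ T : Submodule F (ι → F), T ≤ M ∧ Inv y T ∧ TS Q T ∧ T ≠ ⊥

end Cfsg.Agent.Lib.Helper99.OTSP
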