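-- Team project OTSP (S5973): package [PAIRS], final glue (helper99).
import Mathlib
import Cfsg.Agent.Lib.Helper99.OTSP.PairsDefs

set_option autoImplicit false
open scoped MatrixGroups
open Matrix

namespace Cfsg.Agent.Lib.Helper99.OTSP

open Cfsg.Agent.Lib.Helper23.OHyp

universe u

section aux

variable {F : Type u} [Field F] {ι : Type} [Fintype ι] [DecidableEq ι]

theorem inv_movSp (y : Matrix ι ι F) : Inv y (movSp y) := by
  rintro w ⟨w0, ⟨v, rfl⟩, rfl⟩
  refine ⟨Matrix.toLin' y v, ?_⟩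
  simp only [LinearMap.sub_apply, Module.End.one_apply, map_sub]

theorem inv_pow {y : Matrix ι ι F} {W : Submodule F (ι → F)} (h : Inv y W) (k : ℕ) :
    ∀ w ∈ W, (y ^ k) *ᵥ w ∈ W := by
  induction k with
  | zero => intro w hw; simpa using hw
  | succ k ih =>
    intro w hw
    rw [pow_succ, ← Matrix.mulVec_mulVec]
    exact ih _ (h ⟨w, hw, Matrix.toLin'_apply _ _⟩)

end aux

/-- [PAIRS] from its cut. -/
theorem pkgPairs_of (hA : PkgAniso.{u}) (hP : PkgPrim.{u}) (hC : PkgPairC.{u}) (hTi : PkgTiTs.{u})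
    (hSu : PkgSubI.{u}) (hD : PkgDimI.{u}) (hO : PkgOrd) : PkgPairs.{u} := by
  intro F _ _ ι _ _ Q r y hstd hev s hs
  classical
  obtain ⟨L, R', hLN, hLinv, hLts, hRN, hRinv, hRnd, hdim, haniso⟩ := hA F ι Q r y hstd
  obtain ⟨hi1, -, -, -⟩ := hO (Fintype.card F) r hstd.prime hstd.ne_two hstd.ndvd
  have hbil := hstd.nondeg.polar_bilinear
  have hpolar : ∀ u v, QuadraticMap.polar Q (y *ᵥ u) (y *ᵥ v) = QuadraticMap.polar Q u v := by
    intro u v
    unfold QuadraticMap.polar
    rw [← Matrix.mulVec_add, hstd.isom, hstd.isom, hstd.isom]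
  have hRle : Module.finrank F R' ≤
      ordI (Fintype.card F) r * ((r - 1) / ordI (Fintype.card F) r) := by
    by_contra hlt
    obtain ⟨M, hMR, hMinv, hMdim, hMcyc⟩ := hP F ι Q r y hstd R' hRN hRinv (not_le.mp hlt)
    by_cases hMnd : Nd Q M
    · obtain ⟨T, hTM, hTinv, hTts, hT0⟩ :=
        hC F ι Q r y hstd hev M (hMR.trans hRN) hMinv hMnd hMdim hMcyc
      exact hT0 (haniso T (hTM.trans hMR) hTinv hTts)
    · -- the radical of `M`
      let rad : Submodule F (ι → F) :=
        { carrier := {u | u ∈ M ∧ ∀ x ∈ M, QuadraticMap.polar Q u x = 0}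
          add_mem' := by
            rintro a b ⟨ha, ha'⟩ ⟨hb, hb'⟩
            refine ⟨M.add_mem ha hb, fun x hx => ?_⟩
            rw [hbil.add_left, ha' x hx, hb' x hx, add_zero]
          zero_mem' := by
            refine ⟨M.zero_mem, fun x _ => ?_⟩
            have := hbil.smul_left 0 0 x
            simpa using this
          smul_mem' := by
            rintro c a ⟨ha, ha'⟩
            refine ⟨M.smul_mem c ha, fun x hx => ?_⟩
            rw [hbil.smul_left, ha' x hx, mul_zero] }
      have hradM : rad ≤ M := fun u hu => hu.1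
      have hradinv : Inv y rad := by
        rintro w ⟨u, hu, rfl⟩
        rw [Matrix.toLin'_apply]
        refine ⟨hMinv ⟨u, hu.1, Matrix.toLin'_apply _ _⟩, fun x hx => ?_⟩
        have hx' : (y ^ (r - 1)) *ᵥ x ∈ M := inv_pow hMinv (r - 1) x hx
        have hxe : y *ᵥ ((y ^ (r - 1)) *ᵥ x) = x := by
          rw [Matrix.mulVec_mulVec, ← pow_succ']
          have : r - 1 + 1 = r := by have := hstd.prime.two_le; omega
          rw [this, hstd.pow, Matrix.one_mulVec]
        rw [← hxe, hpolar]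
        exact hu.2 _ hx'
      have hradts : TS Q rad :=
        hTi F ι Q r y hstd rad (hradM.trans (hMR.trans hRN)) hradinv
          (fun u hu v hv => hu.2 v hv.1)
      have hrad0 : rad = ⊥ := haniso rad (hradM.trans hMR) hradinv hradts
      apply hMnd
      intro w hw hw0
      have key : ∃ x ∈ M, QuadraticMap.polar Q w x ≠ 0 := by
        by_contra hcon
        have hwr : w ∈ rad := by
          refine ⟨hw, fun x hx => ?_⟩
          by_contra hne
          exact hcon ⟨x, hx, hne⟩
        rw [hrad0] at hwr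
        exact hw0 ((Submodule.mem_bot F).mp hwr)
      obtain ⟨x, hx, hne⟩ := key
      exact ⟨⟨x, hx, by rwa [QuadraticMap.polar_comm]⟩, ⟨x, hx, hne⟩⟩
  obtain ⟨s₀, hs₀⟩ := hD F ι Q r y hstd L hLN hLinv
  obtain ⟨j, hj⟩ := hD F ι Q r y hstd (movSp y) le_rfl (inv_movSp y)
  rw [hj, Nat.mul_div_cancel_left _ (by omega : 0 < ordI (Fintype.card F) r)] at hs
  rw [hj, hs₀] at hdim
  have hle : ordI (Fintype.card F) r * j ≤
      ordI (Fintype.card F) r * (2 * s₀ + (r - 1) / ordI (Fintype.card F) r) := by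
    calc ordI (Fintype.card F) r * j
        = 2 * (ordI (Fintype.card F) r * s₀) + Module.finrank F R' := hdim
      _ ≤ 2 * (ordI (Fintype.card F) r * s₀)
          + ordI (Fintype.card F) r * ((r - 1) / ordI (Fintype.card F) r) := by omega
      _ = ordI (Fintype.card F) r * (2 * s₀ + (r - 1) / ordI (Fintype.card F) r) := by ring
  have hj' : j ≤ 2 * s₀ + (r - 1) / ordI (Fintype.card F) r :=
    Nat.le_of_mul_le_mul_left hle (by omega)
  have hss : s ≤ s₀ := by omega
  obtain ⟨L', hL'L, hL'inv, hL'dim⟩ := hSu F ι Q r y hstd L hLN hLinv s (by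
    rw [hs₀]
    exact Nat.mul_le_mul_left _ hss)
  exact ⟨L', hL'L.trans hLN, hL'inv, fun w hw => hLts w (hL'L hw), hL'dim⟩

end Cfsg.Agent.Lib.Helper99.OTSP
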