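-- Team project OTSP (S5973): final assembly from the level-0 packages (helper99).
import Mathlib
import Cfsg.Agent.Lib.Helper99.OTSP.Defs

set_option autoImplicit false
open scoped MatrixGroups
open Matrix

namespace Cfsg.Agent.Lib.Helper99.OTSP

open Cfsg.Agent.Lib.Helper23.OHyp

universe u

theorem prime_dvd_card_iff {F : Type u} [Field F] [Fintype F] {p : ℕ} [Fact p.Prime] [CharP F p]
    (r : ℕ) (hr : r.Prime) : r ∣ Fintype.card F ↔ r = p := by
  obtain ⟨n, hp, hc⟩ := FiniteField.card F p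
  rw [hc]
  constructor
  · intro h
    exact (Nat.prime_dvd_prime_iff_eq hr hp).mp (hr.dvd_of_dvd_pow h)
  · rintro rfl
    exact dvd_pow_self _ n.ne_zero

theorem s5973_of (hTwo : PkgTwo.{u}) (hPCnt : PkgPCnt.{u}) (hDvd : PkgDvd.{u}) (hOrd : PkgOrd)
    (hRed : PkgRed.{u}) (hOdd : PkgOdd.{u}) (hEven : PkgEven.{u})
    (hNumOd1 : PkgNumOd1) (hNumOd2 : PkgNumOd2) (hNumEv1 : PkgNumEv1) (hNumEv2 : PkgNumEv2)
    {F : Type u} [Field F] [Fintype F] {p : ℕ} [Fact p.Prime] [CharP F p] {q : ℕ}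
    (hq : Fintype.card F = q)
    (d m : ℕ) (hd : 4 ≤ d) (hm : 1 ≤ m) (hmd : m < d)
    (r : ℕ) [Fact r.Prime]
    (hrΩ : r ∣ Nat.card {W : Submodule F (Fin d ⊕ Fin d → F) // Module.finrank F ↥W = m ∧ (∀ w ∈ W, Cfsg.quadFormPlus d F w = 0)})
    (i c : ℕ) (hi : i = orderOf (q : ZMod r)) (hc : c = if Even i then i else 2 * i) :
    (∀ x : GL (Fin d ⊕ Fin d) F, x ∈ Cfsg.Geo.omegaGL (Cfsg.quadFormPlus d F) →
      (∃ z : F, ((x ^ r : GL (Fin d ⊕ Fin d) F) : Matrix (Fin d ⊕ Fin d) (Fin d ⊕ Fin d) F) = z • (1 : Matrix (Fin d ⊕ Fin d) (Fin d ⊕ Fin d) F)) →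
      (∀ z : F, (x : Matrix (Fin d ⊕ Fin d) (Fin d ⊕ Fin d) F) ≠ z • (1 : Matrix (Fin d ⊕ Fin d) (Fin d ⊕ Fin d) F)) →
      ∃ W : Submodule F (Fin d ⊕ Fin d → F), Module.finrank F ↥W = m ∧ (∀ w ∈ W, Cfsg.quadFormPlus d F w = 0) ∧
        W.map (Matrix.toLin' (x : Matrix (Fin d ⊕ Fin d) (Fin d ⊕ Fin d) F)) ≤ W) ↔
    ((r = 2 ∧ p ≠ 2 ∧ (q % 4 = 1 ∨ (q % 4 = 3 ∧ m + 2 ≤ d ∧ (Even m ∨ (2 * d) % 4 = 2)))) ∨
     (r ≠ p ∧ 2 < r ∧ Odd i ∧ i ≤ m ∧ 2 * (m % i) ≤ (2 * d) % c) ∨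
     (r ≠ p ∧ 2 < r ∧ Even i ∧ i ≤ m ∧ (r - 1) / i + 2 * (m / i) ≤ (2 * d) / i ∧
       ((2 * (m % i) ≤ i ∧ (2 * d) % c = 0 ∧ Odd ((2 * d) / i) ∧ (r - 1) / i + 2 * (m / i) < (2 * d) / i) ∨
        (2 * (m % i) ≤ (2 * d) % c ∧ Even ((2 * d) / i)) ∨
        (2 * (m % i) < (2 * d) % c ∧ Odd ((2 * d) / i))))) := by
  have hrp : r.Prime := Fact.out
  have hpp : p.Prime := Fact.out
  subst hq
  -- the case r = p
  by_cases hrp' : r = p
  · subst hrp'
    exact absurd hrΩ (hPCnt F r d m hmd)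
  have hndvd : ¬ r ∣ Fintype.card F := fun h => hrp' ((prime_dvd_card_iff r hrp).mp h)
  by_cases hr2 : r = 2
  · -- r = 2, p odd
    subst hr2
    have hp2 : p ≠ 2 := fun h => hrp' h.symm
    have hodd : Odd (Fintype.card F) := by
      rcases Nat.even_or_odd (Fintype.card F) with he | ho
      · exact absurd (even_iff_two_dvd.mp he) hndvd
      · exact ho
    have h := hTwo F d m hodd hd hm hmd
    constructor
    · intro hL
      exact Or.inl ⟨rfl, hp2, h.mp hL⟩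
    · rintro (⟨-, -, h1⟩ | ⟨-, h2, -⟩ | ⟨-, h2, -⟩)
      · exact h.mpr h1
      · exact absurd h2 (lt_irrefl 2)
      · exact absurd h2 (lt_irrefl 2)
  -- r odd, r ≠ p
  have hr3 : 2 < r := lt_of_le_of_ne hrp.two_le (Ne.symm hr2)
  have hi' : i = ordI (Fintype.card F) r := hi
  obtain ⟨hi1, hidvd, ho1, ho2⟩ := hOrd (Fintype.card F) r hrp hr2 hndvd
  rw [← hi'] at hi1 hidvd ho1 ho2
  have ht1 : 1 ≤ (r - 1) / i := by
    obtain ⟨u, hu⟩ := hidvd
    have hu0 : u ≠ 0 := by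
      rintro rfl
      omega
    rw [hu, Nat.mul_div_cancel_left _ (by omega : 0 < i)]
    omega
  obtain ⟨j0, hj0, hdv⟩ := hDvd F d m r hrp hmd hrΩ
  have hred := hRed F d m r hrp hr2 (by omega)
  refine hred.trans ?_
  rcases Nat.even_or_odd i with hie | hio
  · -- i even
    have hi2 : 2 ≤ i := by
      obtain ⟨u, hu⟩ := hie
      omega
    have hc' : c = i := by rw [hc, if_pos hie]
    have hev := hEven F d m r hrp hr2 hndvd (by rw [← hi']; exact hie) (by omega)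
    rw [← hi'] at hev
    refine hev.trans ?_
    by_cases him : i ≤ m
    · have hnum := hNumEv1 i m d ((r - 1) / i) hie hi2 him hmd ht1
      refine hnum.trans ?_
      rw [hc']
      constructor
      · rintro ⟨h1, h2⟩
        exact Or.inr (Or.inr ⟨hrp', hr3, hie, him, h1, h2⟩)
      · rintro (⟨h1, -⟩ | ⟨-, -, h1, -⟩ | ⟨-, -, -, -, h1, h2⟩)
        · exact absurd h1 hr2
        · exact absurd hie (Nat.not_even_iff_odd.mpr h1)
        · exact ⟨h1, h2⟩
    · have hmi : m < i := not_le.mp him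
      have hno : ¬ AllEv i m d ((r - 1) / i) := by
        apply hNumEv2 i m d ((r - 1) / i) hie hi2 hm hmi hmd ht1
        rcases hdv with h | h
        · exact Or.inl ⟨d - j0, by omega, by omega, ho1 _ h⟩
        · exact Or.inr ⟨d - j0 - 1, by omega, by omega, (ho2 _ h).2⟩
      constructor
      · intro h
        exact absurd h hno
      · rintro (⟨h1, -⟩ | ⟨-, -, h1, -⟩ | ⟨-, -, -, h1, -⟩)
        · exact absurd h1 hr2
        · exact absurd hie (Nat.not_even_iff_odd.mpr h1)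
        · exact absurd h1 him
  · -- i odd
    have hc' : c = 2 * i := by rw [hc, if_neg (Nat.not_even_iff_odd.mpr hio)]
    have hod := hOdd F d m r hrp hr2 hndvd (by rw [← hi']; exact hio) (by omega)
    rw [← hi'] at hod
    refine hod.trans ?_
    by_cases him : i ≤ m
    · have hnum := hNumOd1 i m d hi1 him hmd
      refine hnum.trans ?_
      rw [hc']
      constructor
      · intro h1
        exact Or.inr (Or.inl ⟨hrp', hr3, hio, him, h1⟩)
      · rintro (⟨h1, -⟩ | ⟨-, -, -, -, h1⟩ | ⟨-, -, h1, -⟩)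
        · exact absurd h1 hr2
        · exact h1
        · exact absurd h1 (Nat.not_even_iff_odd.mpr hio)
    · have hmi : m < i := not_le.mp him
      have hno : ¬ AllOdd i m d := by
        rcases hdv with h | h
        · exact hNumOd2 i m d (d - j0) hi1 hm hmi hmd (by omega) (by omega) (ho1 _ h)
        · exact absurd (ho2 _ h).1 (Nat.not_even_iff_odd.mpr hio)
      constructor
      · intro h
        exact absurd h hno
      · rintro (⟨h1, -⟩ | ⟨-, -, -, h1, -⟩ | ⟨-, -, h1, -⟩)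
        · exact absurd h1 hr2
        · exact absurd h1 him
        · exact absurd h1 (Nat.not_even_iff_odd.mpr hio)

end Cfsg.Agent.Lib.Helper99.OTSP
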