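-- Team project OTSP (S5973): wiring of the landed packages; what remains are the hypotheses
-- of `s5973_of_rest` (helper99).
import Mathlib
import Cfsg.Agent.Lib.Helper99.OTSP.Asm2
import Cfsg.Agent.Lib.Helper99.OTSP.Pairs
import Cfsg.Agent.Lib.Helper21.OTSP.NumEv1
import Cfsg.Agent.Lib.Helper21.OTSP.NumEv2
import Cfsg.Agent.Lib.Helper34.OTSP.DimI
import Cfsg.Agent.Lib.Helper34.OTSP.Split
import Cfsg.Agent.Lib.Helper37.OTSP.Two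
import Cfsg.Agent.Lib.Helper53.OTSP.Cnt
import Cfsg.Agent.Lib.Helper53.OTSP.NumOd
import Cfsg.Agent.Lib.Helper53.OTSP.Odd
import Cfsg.Agent.Lib.Helper53.OTSP.Ord
import Cfsg.Agent.Lib.Helper53.OTSP.Red4
import Cfsg.Agent.Lib.Helper61.OTSP.Even
import Cfsg.Agent.Lib.Helper61.OTSP.FixEv
import Cfsg.Agent.Lib.Helper61.OTSP.FixOdd
import Cfsg.Agent.Lib.Helper86.OTSP.OddOm4
import Cfsg.Agent.Lib.Helper87.OTSP.ExOdd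
import Cfsg.Agent.Lib.Helper87.OTSP.PlusQ
import Cfsg.Agent.Lib.Helper87.OTSP.WCa
import Cfsg.Agent.Lib.Helper94.OTSP.TsBd
import Cfsg.Agent.Lib.Helper45.OPar.Scal

set_option autoImplicit false
open scoped MatrixGroups
open Matrix

namespace Cfsg.Agent.Lib.Helper99.OTSP

open Cfsg.Agent.Lib.Helper23.OHyp

universe u

theorem s5973_of_rest (hNHyp : PkgNHyp.{u}) (hTypeN : PkgTypeN.{u}) (hWCb : PkgWCb.{u})
    (hPairs : PkgPairs.{u}) (hSpread : PkgSpread.{u})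
    {F : Type u} [Field F] [Fintype F] {p : ℕ} [Fact p.Prime] [CharP F p] {q : ℕ}
    (hq : Fintype.card F = q)
    (d m : ℕ) (hd : 4 ≤ d) (hm : 1 ≤ m) (hmd : m < d)
    (r : ℕ) [Fact r.Prime]
    (hrΩ : r ∣ Nat.card {W : Submodule F (Fin d ⊕ Fin d → F) // Module.finrank F ↥W = m ∧ (∀ w ∈ W, Cfsg.quadFormPlus d F w = 0)})
    (i c : ℕ) (hi : i = orderOf (q : ZMod r)) (hc : c = if Even i then i else 2 * i) :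
    (∀ x : GL (Fin d ⊕ Fin d) F, x ∈ Cfsg.Geo.omegaGL (Cfsg.quadFormPlus d F) →
      (∃ z : F, ((x ^ r : GL (Fin d ⊕ Fin d) F) : Matrix (Fin d ⊕ Fin d) (Fin d ⊕ Fin d) F) = z • (1 : Matrix (Fin d ⊕ Fin d) (Fin d ⊕ Fin d) F)) →
      (∀ z : F, (x : Matrix (Fin d ⊕ Fin d) (Fin d ⊕ Fin d) F) ≠ z • (1 : Matrix (Fin d ⊕ Fin d) (Fin d ⊕ Fin d) F)) →
      ∃ W : Submodule F (Fin d ⊕ Fin d → F), Module.finrank F ↥W = m ∧ (∀ w ∈ W, Cfsg.quadFormPlus d F w = 0) ∧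
        W.map (Matrix.toLin' (x : Matrix (Fin d ⊕ Fin d) (Fin d ⊕ Fin d) F)) ≤ W) ↔
    ((r = 2 ∧ p ≠ 2 ∧ (q % 4 = 1 ∨ (q % 4 = 3 ∧ m + 2 ≤ d ∧ (Even m ∨ (2 * d) % 4 = 2)))) ∨
     (r ≠ p ∧ 2 < r ∧ Odd i ∧ i ≤ m ∧ 2 * (m % i) ≤ (2 * d) % c) ∨
     (r ≠ p ∧ 2 < r ∧ Even i ∧ i ≤ m ∧ (r - 1) / i + 2 * (m / i) ≤ (2 * d) / i ∧
       ((2 * (m % i) ≤ i ∧ (2 * d) % c = 0 ∧ Odd ((2 * d) / i) ∧ (r - 1) / i + 2 * (m / i) < (2 * d) / i) ∨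
        (2 * (m % i) ≤ (2 * d) % c ∧ Even ((2 * d) / i)) ∨
        (2 * (m % i) < (2 * d) % c ∧ Odd ((2 * d) / i))))) := by
  have hPlusQ : PkgPlusQ.{u} := Cfsg.Agent.Lib.Helper87.OTSP.pkgPlusQ
  have hSplit : PkgSplit.{u} := Cfsg.Agent.Lib.Helper34.OTSP.pkgSplit
  have hDimI : PkgDimI.{u} := Cfsg.Agent.Lib.Helper34.OTSP.pkgDimI
  have hSubI : PkgSubI.{u} := Cfsg.Agent.Lib.Helper34.OTSP.pkgSubI
  have hTsBd : PkgTsBd.{u} := Cfsg.Agent.Lib.Helper94.OTSP.pkgTsBd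
  have hWCa : PkgWCa.{u} := Cfsg.Agent.Lib.Helper87.OTSP.pkgWCa
  have hFixOdd : PkgFixOdd.{u} :=
    Cfsg.Agent.Lib.Helper61.OTSP.pkgFixOdd_of hSplit hDimI hSubI hTsBd hNHyp hWCa
  have hFixEv : PkgFixEv.{u} :=
    Cfsg.Agent.Lib.Helper61.OTSP.pkgFixEv_of hSplit hDimI hTsBd hTypeN hWCa hWCb
  have hOdd : PkgOdd.{u} :=
    Cfsg.Agent.Lib.Helper53.OTSP.pkgOdd_of hPlusQ hFixOdd Cfsg.Agent.Lib.Helper87.OTSP.pkgExOdd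
  have hEven : PkgEven.{u} :=
    Cfsg.Agent.Lib.Helper61.OTSP.pkgEven_of hPlusQ hFixEv hPairs hSpread
  have hRed : PkgRed4.{u} :=
    Cfsg.Agent.Lib.Helper53.OTSP.pkgRed4_of Cfsg.Agent.Lib.Helper45.OPar.pkgScal hPlusQ
      Cfsg.Agent.Lib.Helper86.OTSP.pkgOddOm4
  exact s5973_of4 Cfsg.Agent.Lib.Helper37.OTSP.pkgTwo Cfsg.Agent.Lib.Helper53.OTSP.pkgPCnt
    Cfsg.Agent.Lib.Helper53.OTSP.pkgDvd Cfsg.Agent.Lib.Helper53.OTSP.pkgOrd hRed hOdd hEven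
    Cfsg.Agent.Lib.Helper53.OTSP.pkgNumOd1 Cfsg.Agent.Lib.Helper53.OTSP.pkgNumOd2
    Cfsg.Agent.Lib.Helper21.OTSP.pkgNumEv1 Cfsg.Agent.Lib.Helper21.OTSP.pkgNumEv2
    hq d m hd hm hmd r hrΩ i c hi hc

end Cfsg.Agent.Lib.Helper99.OTSP
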