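-- Team project OTSP (S5973): wiring, stage 2; what remains are the hypotheses of
-- `s5973_of_rest2` (helper99).
import Mathlib
import Cfsg.Agent.Lib.Helper99.OTSP.Asm3
import Cfsg.Agent.Lib.Helper94.OTSP.NHyp
import Cfsg.Agent.Lib.Helper67.OTSP.TypeW
import Cfsg.Agent.Lib.Helper53.OTSP.WCb
import Cfsg.Agent.Lib.Helper87.OTSP.TiTs

set_option autoImplicit false
open scoped MatrixGroups
open Matrix

namespace Cfsg.Agent.Lib.Helper99.OTSP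

open Cfsg.Agent.Lib.Helper23.OHyp

universe u

theorem s5973_of_rest2 (hAniso : PkgAniso.{u}) (hPrim : PkgPrim.{u}) (hPairC : PkgPairC.{u})
    (hSpread : PkgSpread.{u})
    {F : Type u} [Field F] [Fintype F] {p : ℕ} [Fact p.Prime] [CharP F p] {q : ℕ}
    (hq : Fintype.card F = q)
    (d m : ℕ) (hd : 4 ≤ d) (hm : 1 ≤ m) (hmd : m < d)
    (r : ℕ) [Fact r.Prime]
    (hrΩ : r ∣ Nat.card {W : Submodule F (Fin d ⊕ Fin d → F) // Module.finrank F ↥W = m ∧ (∀ w ∈ W, Cfsg.quadFormPlus d F w = 0)})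
    (i c : ℕ) (hi : i = orderOf (q : ZMod r)) (hc : c = if Even i then i else 2 * i) :
    (∀ x : GL (Fin d ⊕ Fin d) F, x ∈ Cfsg.Geo.omegaGL (Cfsg.quadFormPlus d F) →
      (∃ z : F, ((x ^ r : GL (Fin d ⊕ Fin d) F) : Matrix (Fin d ⊕ Fin d) (Fin d ⊕ Fin d) F) = z • (1 : Matrix (Fin d ⊕ Fin d) (Fin d ⊕ Fin d) F)) →
      (∀ z : F, (x : Matrix (Fin d ⊕ Fin d) (Fin d ⊕ Fin d) F) ≠ z • (1 : Matrix (Fin d ⊕ Fin d) (Fin d ⊕ Fin d) F)) →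
      ∃ W : Submodule F (Fin d ⊕ Fin d → F), Module.finrank F ↥W = m ∧ (∀ w ∈ W, Cfsg.quadFormPlus d F w = 0) ∧
        W.map (Matrix.toLin' (x : Matrix (Fin d ⊕ Fin d) (Fin d ⊕ Fin d) F)) ≤ W) ↔
    ((r = 2 ∧ p ≠ 2 ∧ (q % 4 = 1 ∨ (q % 4 = 3 ∧ m + 2 ≤ d ∧ (Even m ∨ (2 * d) % 4 = 2)))) ∨
     (r ≠ p ∧ 2 < r ∧ Odd i ∧ i ≤ m ∧ 2 * (m % i) ≤ (2 * d) % c) ∨
     (r ≠ p ∧ 2 < r ∧ Even i ∧ i ≤ m ∧ (r - 1) / i + 2 * (m / i) ≤ (2 * d) / i ∧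
       ((2 * (m % i) ≤ i ∧ (2 * d) % c = 0 ∧ Odd ((2 * d) / i) ∧ (r - 1) / i + 2 * (m / i) < (2 * d) / i) ∨
        (2 * (m % i) ≤ (2 * d) % c ∧ Even ((2 * d) / i)) ∨
        (2 * (m % i) < (2 * d) % c ∧ Odd ((2 * d) / i))))) := by
  have hSplit : PkgSplit.{u} := Cfsg.Agent.Lib.Helper34.OTSP.pkgSplit
  have hPairs : PkgPairs.{u} :=
    pkgPairs_of hAniso hPrim hPairC (Cfsg.Agent.Lib.Helper87.OTSP.pkgTiTs_of hSplit)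
      Cfsg.Agent.Lib.Helper34.OTSP.pkgSubI Cfsg.Agent.Lib.Helper34.OTSP.pkgDimI
      Cfsg.Agent.Lib.Helper53.OTSP.pkgOrd
  exact s5973_of_rest (Cfsg.Agent.Lib.Helper94.OTSP.pkgNHyp_of hSplit)
    (Cfsg.Agent.Lib.Helper67.OTSP.pkgTypeN_of hSplit) Cfsg.Agent.Lib.Helper53.OTSP.pkgWCb
    hPairs hSpread hq d m hd hm hmd r hrΩ i c hi hc

end Cfsg.Agent.Lib.Helper99.OTSP
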